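import Mathlib.Algebra.Group.End
import Mathlib.Algebra.Group.Subgroup.Ker
import Mathlib.Algebra.BigOperators.Group.List.Basic
import Mathlib.Tactic.Group

/-! Elementary identities for Shintani descent. -/

set_option autoImplicit false

namespace CfsgLib.Shintani

variable {X : Type*} [Group X] (σ : MulAut X)

theorem mem_fix {τ : MulAut X} {x : X} :
    x ∈ (MulEquiv.toMonoidHom τ).eqLocus (MonoidHom.id X) ↔ τ x = x := Iff.rfl

theorem pow_apply_succ (n : ℕ) (x : X) : (σ ^ (n + 1)) x = σ ((σ ^ n) x) := by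
  rw [pow_succ', MulAut.mul_apply]

theorem pow_apply_succ' (n : ℕ) (x : X) : (σ ^ (n + 1)) x = (σ ^ n) (σ x) := by
  rw [pow_succ, MulAut.mul_apply]

theorem pow_apply_add (m n : ℕ) (x : X) : (σ ^ (m + n)) x = (σ ^ m) ((σ ^ n) x) := by
  rw [pow_add, MulAut.mul_apply]

theorem pow_fix {x : X} (h : σ x = x) (n : ℕ) : (σ ^ n) x = x := by
  induction n with
  | zero => simp
  | succ n ih => rw [pow_apply_succ, ih, h]

theorem norm_prod {g a : X} (ha : g = a * (σ a)⁻¹) (d : ℕ) :
    ((List.range d).map (fun i => (σ ^ i) g)).prod = a * ((σ ^ d) a)⁻¹ := by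
  induction d with
  | zero => simp
  | succ d ih =>
    rw [List.range_succ, List.map_append, List.prod_append, ih]
    simp only [List.map_cons, List.map_nil, List.prod_cons, List.prod_nil, mul_one, ha, map_mul,
      map_inv, pow_apply_succ']
    group

theorem image_fix {e : ℕ} {g a : X} (hg : (σ ^ e) g = g) (ha : g = a * (σ a)⁻¹) :
    σ (((σ ^ e) a)⁻¹ * a) = ((σ ^ e) a)⁻¹ * a := by
  rw [map_mul, map_inv, ← pow_apply_succ, pow_apply_succ']
  rw [ha, map_mul, map_inv] at hg
  have h1 : (σ ^ e) a = a * (σ a)⁻¹ * (σ ^ e) (σ a) := mul_inv_eq_iff_eq_mul.mp hg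
  conv_rhs => rw [h1]
  group

end CfsgLib.Shintani
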